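import Cfsg.Agent.Lib.Schur.Ru.Base
import Cfsg.Agent.Lib.Schur.Local
import Cfsg.Agent.Lib.CosetCert.D.Ru.Final

/-!
# The codes of the Rudvalis group on 4060 points: the letters and the strong generators lie in the group
-/

set_option autoImplicit false
set_option maxRecDepth 100000
set_option maxHeartbeats 0

namespace Cfsg.Agent.Lib.Schur.Ru.Gen

open Subgroup Cfsg.Agent.Lib.Schur.Stem Cfsg.Agent.Lib.Schur.Local
open Cfsg.Agent.Lib.PermComp Cfsg.Agent.Lib.PermComp.Core
open Cfsg.Agent.Lib.Schur.Slp2 Cfsg.Agent.Lib.Schur.Ru.Base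
open Cfsg.Agent.Lib.CosetCert Cfsg.Agent.Lib.CosetCert.D.Ru.Tbl

/-- The model of the Rudvalis group. -/
noncomputable abbrev Ag : Subgroup (Equiv.Perm (Fin 4060)) := L0.G

theorem hm : 4095 = 2 ^ 12 - 1 := by norm_num

theorem hid : ∀ i < 4060, app 12 4095 ru_idc i = i := ru_hid

theorem card_Ag : Nat.card Ag = 145926144000 := Cfsg.Agent.Lib.CosetCert.D.Ru.Final.card0

theorem T_eq : T = [tree0.get 0, tree0.get 2, tree0.get 1, tree0.get 3] := by decide +kernel

theorem rep_letter {l : ℕ} (hl : l < 4) :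
    Rep (n := 4060) 12 4095 (Equiv.refl _) (tree0.get l) (L0.val l) := by
  intro a
  have hl' : l < L0.k := hl
  have h := L0.val_apply hl' a
  simp only [Equiv.refl_apply]
  have h2 : L0.F l a = cell 12 4095 (tree0.get l) a := rfl
  rw [h, h2, cell, app]
  have h3 : Nat.mul 12 (a : ℕ) = Nat.mul (a : ℕ) 12 := Nat.mul_comm _ _
  rw [h3]

theorem T_mem : ∀ c ∈ T, ∃ g ∈ Ag, Rep (n := 4060) 12 4095 (Equiv.refl _) c g := by
  intro c hc
  rw [T_eq] at hc
  simp only [List.mem_cons, List.not_mem_nil, or_false] at hc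
  have key : ∀ l, l < 4 → ∃ g ∈ Ag, Rep (n := 4060) 12 4095 (Equiv.refl _) (tree0.get l) g :=
    fun l hl => ⟨L0.val l, L0.val_mem hl, rep_letter hl⟩
  rcases hc with rfl | rfl | rfl | rfl
  · exact key 0 (by norm_num)
  · exact key 2 (by norm_num)
  · exact key 1 (by norm_num)
  · exact key 3 (by norm_num)

theorem S_mem : ∀ c ∈ S, ∃ g ∈ Ag, Rep (n := 4060) 12 4095 (Equiv.refl _) c g :=
  slp2_sound (n := 4060) (w := 12) (mask := 4095) hm hid Ag S prog0 T.reverse T.length (by simp)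
    (fun c hc => T_mem c (by simpa using hc)) Base.slp_ok

theorem S_rev_mem : ∀ c ∈ S.reverse, ∃ g ∈ Ag, Rep (n := 4060) 12 4095 (Equiv.refl _) c g :=
  fun c hc => S_mem c (by simpa using hc)

end Cfsg.Agent.Lib.Schur.Ru.Gen
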