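import Cfsg.Agent.Lib.Schur.Ru.P2.Check
import Cfsg.Agent.Lib.Schur.Ru.P2.R0
import Cfsg.Agent.Lib.Schur.Ru.P2.R1
import Cfsg.Agent.Lib.Schur.Ru.P2.R2
import Cfsg.Agent.Lib.Schur.Ru.P2.L0
import Cfsg.Agent.Lib.Schur.Ru.P2.L1
import Cfsg.Agent.Lib.Schur.Ru.P2.L2
import Cfsg.Agent.Lib.Schur.Ru.P2.L3
import Cfsg.Agent.Lib.Schur.Ru.P2.L4
import Cfsg.Agent.Lib.Schur.Ru.P2.Ord
import Cfsg.Agent.Lib.Schur.Ru.P2.C0
import Cfsg.Agent.Lib.Schur.Ru.P2.C1
import Cfsg.Agent.Lib.Schur.Ru.P2.C2
import Cfsg.Agent.Lib.Schur.Ru.P2.C3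
import Cfsg.Agent.Lib.Schur.Ru.P2.C4
import Cfsg.Agent.Lib.Schur.Ru.P2.C5
/-!
# A tail certificate for a Sylow 2-subgroup of the Rudvalis group, checked in parts
-/

set_option autoImplicit false
set_option maxRecDepth 100000
set_option maxHeartbeats 0

namespace Cfsg.Agent.Lib.Schur.Ru.P2

open Cfsg.Agent.Lib.Schur.PcMain Cfsg.Agent.Lib.Schur.PcPerm Cfsg.Agent.Lib.Schur.PcPerm2
open Cfsg.Agent.Lib.Schur.Ru.Base
open Cfsg.Agent.Lib.PermComp.Core Cfsg.Agent.Lib.Schur.Slp2

theorem rows_ok : ∀ j < C.n, rowOK 4060 12 4095 idc C codes j = true := by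
  intro j hj
  have hj' : j < 14 := hj
  interval_cases j
  · exact row_0
  · exact row_1
  · exact row_2
  · exact row_3
  · exact row_4
  · exact row_5
  · exact row_6
  · exact row_7
  · exact row_8
  · exact row_9
  · exact row_10
  · exact row_11
  · exact row_12
  · exact row_13

theorem lens_ok : ∀ f < C.items.length, lenOK C conj f = true := by
  intro f hf
  have hf' : f < 3 := hf
  interval_cases f <;> decide +kernel

theorem lets_ok : ∀ f < C.items.length, ∀ l < (C.items.getD f ([], [])).1.length, letOK 4060 12 4095 idc C codes conj f l = true := by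
  intro f hf
  have hf' : f < 3 := hf
  interval_cases f
  · intro l hl
    have hl' : l < 13 := hl
    interval_cases l
    · exact let_0_0
    · exact let_0_1
    · exact let_0_2
    · exact let_0_3
    · exact let_0_4
    · exact let_0_5
    · exact let_0_6
    · exact let_0_7
    · exact let_0_8
    · exact let_0_9
    · exact let_0_10
    · exact let_0_11
    · exact let_0_12
  · intro l hl
    have hl' : l < 12 := hl
    interval_cases l
    · exact let_1_0
    · exact let_1_1
    · exact let_1_2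
    · exact let_1_3
    · exact let_1_4
    · exact let_1_5
    · exact let_1_6
    · exact let_1_7
    · exact let_1_8
    · exact let_1_9
    · exact let_1_10
    · exact let_1_11
  · intro l hl
    have hl' : l < 13 := hl
    interval_cases l
    · exact let_2_0
    · exact let_2_1
    · exact let_2_2
    · exact let_2_3
    · exact let_2_4
    · exact let_2_5
    · exact let_2_6
    · exact let_2_7
    · exact let_2_8
    · exact let_2_9
    · exact let_2_10
    · exact let_2_11
    · exact let_2_12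

theorem chk_ok : chkP 4060 12 4095 idc C codes conj base ord = true :=
  chkP_of_parts (by decide +kernel) id_ok rows_ok lens_ok lets_ok ord_ok

theorem mem_all (H : Subgroup (Equiv.Perm (Fin 4060)))
    (hm : 4095 = 2 ^ 12 - 1) (hid : ∀ i < 4060, app 12 4095 idc i = i)
    (hS : ∀ c ∈ S, ∃ g ∈ H, Rep (n := 4060) 12 4095 (Equiv.refl _) c g) :
    ∀ c ∈ codes ++ conj, ∃ g ∈ H, Rep (n := 4060) 12 4095 (Equiv.refl _) c g := by
  have h_0 : ∀ c ∈ O_0, ∃ g ∈ H, Rep (n := 4060) 12 4095 (Equiv.refl _) c g :=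
    slp2_sound hm hid H O_0 P_0 V_0.reverse V_0.length (by simp) (fun c hc => hS c (by simpa [V_0] using hc)) chunk_0
  have h_1 : ∀ c ∈ O_1, ∃ g ∈ H, Rep (n := 4060) 12 4095 (Equiv.refl _) c g :=
    slp2_sound hm hid H O_1 P_1 V_1.reverse V_1.length (by simp) (fun c hc => h_0 c (by
      have hsub : ∀ x ∈ V_1, x ∈ O_0 := by decide +kernel
      exact hsub c (by simpa using hc))) chunk_1
  have h_2 : ∀ c ∈ O_2, ∃ g ∈ H, Rep (n := 4060) 12 4095 (Equiv.refl _) c g :=
    slp2_sound hm hid H O_2 P_2 V_2.reverse V_2.length (by simp) (fun c hc => h_1 c (by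
      have hsub : ∀ x ∈ V_2, x ∈ O_1 := by decide +kernel
      exact hsub c (by simpa using hc))) chunk_2
  have h_3 : ∀ c ∈ O_3, ∃ g ∈ H, Rep (n := 4060) 12 4095 (Equiv.refl _) c g :=
    slp2_sound hm hid H O_3 P_3 V_3.reverse V_3.length (by simp) (fun c hc => h_2 c (by
      have hsub : ∀ x ∈ V_3, x ∈ O_2 := by decide +kernel
      exact hsub c (by simpa using hc))) chunk_3
  have h_4 : ∀ c ∈ O_4, ∃ g ∈ H, Rep (n := 4060) 12 4095 (Equiv.refl _) c g :=
    slp2_sound hm hid H O_4 P_4 V_4.reverse V_4.length (by simp) (fun c hc => h_3 c (by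
      have hsub : ∀ x ∈ V_4, x ∈ O_3 := by decide +kernel
      exact hsub c (by simpa using hc))) chunk_4
  have h_5 : ∀ c ∈ O_5, ∃ g ∈ H, Rep (n := 4060) 12 4095 (Equiv.refl _) c g :=
    slp2_sound hm hid H O_5 P_5 V_5.reverse V_5.length (by simp) (fun c hc => h_4 c (by
      have hsub : ∀ x ∈ V_5, x ∈ O_4 := by decide +kernel
      exact hsub c (by simpa using hc))) chunk_5
  have h_6 : ∀ c ∈ O_6, ∃ g ∈ H, Rep (n := 4060) 12 4095 (Equiv.refl _) c g :=
    slp2_sound hm hid H O_6 P_6 V_6.reverse V_6.length (by simp) (fun c hc => h_5 c (by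
      have hsub : ∀ x ∈ V_6, x ∈ O_5 := by decide +kernel
      exact hsub c (by simpa using hc))) chunk_6
  have h_7 : ∀ c ∈ O_7, ∃ g ∈ H, Rep (n := 4060) 12 4095 (Equiv.refl _) c g :=
    slp2_sound hm hid H O_7 P_7 V_7.reverse V_7.length (by simp) (fun c hc => h_6 c (by
      have hsub : ∀ x ∈ V_7, x ∈ O_6 := by decide +kernel
      exact hsub c (by simpa using hc))) chunk_7
  have h_8 : ∀ c ∈ O_8, ∃ g ∈ H, Rep (n := 4060) 12 4095 (Equiv.refl _) c g :=
    slp2_sound hm hid H O_8 P_8 V_8.reverse V_8.length (by simp) (fun c hc => h_7 c (by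
      have hsub : ∀ x ∈ V_8, x ∈ O_7 := by decide +kernel
      exact hsub c (by simpa using hc))) chunk_8
  have h_9 : ∀ c ∈ O_9, ∃ g ∈ H, Rep (n := 4060) 12 4095 (Equiv.refl _) c g :=
    slp2_sound hm hid H O_9 P_9 V_9.reverse V_9.length (by simp) (fun c hc => h_8 c (by
      have hsub : ∀ x ∈ V_9, x ∈ O_8 := by decide +kernel
      exact hsub c (by simpa using hc))) chunk_9
  have h_10 : ∀ c ∈ O_10, ∃ g ∈ H, Rep (n := 4060) 12 4095 (Equiv.refl _) c g :=
    slp2_sound hm hid H O_10 P_10 V_10.reverse V_10.length (by simp) (fun c hc => h_9 c (by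
      have hsub : ∀ x ∈ V_10, x ∈ O_9 := by decide +kernel
      exact hsub c (by simpa using hc))) chunk_10
  have h_11 : ∀ c ∈ O_11, ∃ g ∈ H, Rep (n := 4060) 12 4095 (Equiv.refl _) c g :=
    slp2_sound hm hid H O_11 P_11 V_11.reverse V_11.length (by simp) (fun c hc => h_10 c (by
      have hsub : ∀ x ∈ V_11, x ∈ O_10 := by decide +kernel
      exact hsub c (by simpa using hc))) chunk_11
  intro c hc
  have hsub : ∀ x ∈ codes ++ conj, x ∈ O_11 := by decide +kernel
  exact h_11 c (hsub c hc)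

end Cfsg.Agent.Lib.Schur.Ru.P2
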