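import Cfsg.Agent.Lib.Schur.Ru.Gen
import Cfsg.Agent.Lib.Schur.Ru.P2
import Cfsg.Agent.Lib.Schur.Ru.P3
import Cfsg.Agent.Lib.Schur.Ru.P5

/-!
# The stem bound for the Rudvalis group on 4060 points
-/

set_option autoImplicit false
set_option maxRecDepth 100000
set_option maxHeartbeats 0

namespace Cfsg.Agent.Lib.Schur.Ru.Main

open Subgroup Cfsg.Agent.Lib.Schur.Stem Cfsg.Agent.Lib.Schur.Local
open Cfsg.Agent.Lib.PermComp Cfsg.Agent.Lib.PermComp.Core
open Cfsg.Agent.Lib.Schur.Slp2 Cfsg.Agent.Lib.Schur.Ru.Base Cfsg.Agent.Lib.Schur.Ru.Gen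

theorem not_sq_dvd {p : ℕ} (hp : p.Prime) (h2 : p ≠ 2) (h3 : p ≠ 3) (h5 : p ≠ 5) :
    ¬ p ^ 2 ∣ 145926144000 := by
  intro h
  have hc : Nat.Coprime (p ^ 2) (2 ^ 14 * 3 ^ 3 * 5 ^ 3) := by
    apply Nat.Coprime.pow_left
    apply Nat.Coprime.mul_right
    · apply Nat.Coprime.mul_right
      · exact Nat.Coprime.pow_right _ ((Nat.coprime_primes hp Nat.prime_two).2 h2)
      · exact Nat.Coprime.pow_right _ ((Nat.coprime_primes hp Nat.prime_three).2 h3)
    · exact Nat.Coprime.pow_right _ ((Nat.coprime_primes hp Nat.prime_five).2 h5)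
  have h4 : p ^ 2 ∣ 2639 := by
    have : 145926144000 = (2 ^ 14 * 3 ^ 3 * 5 ^ 3) * 2639 := by norm_num
    rw [this] at h
    exact hc.dvd_of_dvd_mul_left h
  have h5' := Nat.le_of_dvd (by norm_num) h4
  have h6 : p ≤ 51 := by nlinarith
  interval_cases p
  all_goals first | omega | (norm_num at hp; done) | (norm_num at h4; done)

theorem bound : StemBound.{0} Ag 2 := by
  intro Γ _ _ σ hσ
  refine card_ker_dvd_of_sylow hσ 2 (by norm_num) ?_
  intro p _ P
  by_cases hp2 : p = 2
  · subst hp2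
    have hmem := P2.mem_all Ag hm hid S_mem
    exact Cfsg.Agent.Lib.Schur.PcPerm.card_ker_dvd (p := 2) Ag P2.C P2.check_ok P2.codes P2.conj
      P2.base P2.ord P2.chk_ok (fun c hc => hmem c (List.mem_append_left _ hc))
      (fun c hc => hmem c (List.mem_append_right _ hc)) rfl hσ
      (m := 8906625) (by rw [card_Ag]; decide +kernel) (by norm_num) P
  by_cases hp3 : p = 3
  · subst hp3
    have hmem := slp2_sound (n := 4060) (w := 12) (mask := 4095) hm hid Ag _ P3.prog S.reverse S.length (by simp) S_rev_mem P3.slp_ok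
    exact (Cfsg.Agent.Lib.Schur.PcPerm.card_ker_dvd (p := 3) Ag P3.C P3.check_ok P3.codes P3.conj
      P3.base P3.ord P3.chk_ok (fun c hc => hmem c (List.mem_append_left _ hc))
      (fun c hc => hmem c (List.mem_append_right _ hc)) rfl hσ
      (m := 5404672000) (by rw [card_Ag]; decide +kernel) (by norm_num) P).trans (by decide +kernel)
  by_cases hp5 : p = 5
  · subst hp5
    have hmem := slp2_sound (n := 4060) (w := 12) (mask := 4095) hm hid Ag _ P5.prog S.reverse S.length (by simp) S_rev_mem P5.slp_ok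
    exact (Cfsg.Agent.Lib.Schur.PcPerm.card_ker_dvd (p := 5) Ag P5.C P5.check_ok P5.codes P5.conj
      P5.base P5.ord P5.chk_ok (fun c hc => hmem c (List.mem_append_left _ hc))
      (fun c hc => hmem c (List.mem_append_right _ hc)) rfl hσ
      (m := 1167409152) (by rw [card_Ag]; decide +kernel) (by norm_num) P).trans (by decide +kernel)
  · refine (card_ker_sylow_of_not_sq_dvd hσ ?_ P).trans (by norm_num)
    rw [card_Ag]
    exact not_sq_dvd Fact.out hp2 hp3 hp5

end Cfsg.Agent.Lib.Schur.Ru.Main
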